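import Cfsg.Agent.BabyComp.BaseTwo
import Cfsg.Agent.MonsterN.CardK

/-!
# Elements of order three of the Baby Monster with centralizer of even order (helper30)

`q : B → X` onto with kernel `{1, τ}`, `B = C_Γ(θ τ)`, `Γ` the Monster, `X` the Baby Monster.
`exists_two` : if `x ∈ B` has order three and `q x` commutes with an involution, then `x` commutes with an element `v` of
`B` which is conjugate in `Γ` to `z` (class 2B of the Monster).
-/

set_option autoImplicit false
set_option linter.unusedSectionVars false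

namespace Cfsg.Agent.BabyComp.EvenThree

open Subgroup Cfsg Cfsg.Agent.R01.Lifts Cfsg.Agent.MonsterN Cfsg.Agent.MonsterN.Lit
open Cfsg.Agent.BabyComp.Main Cfsg.Agent.BabyComp.BaseTwo

section

variable {B X E : Type*} [Group B] [Group X] [Group E] [Finite B] [Finite X] {q : B →* X} {τ : B} {R : Set E}
variable {y : ℕ → B} {h : Pre y} {π : KK y →* E} {f₁ f₂ f₃ f₄ : B}

/-- An element of `B` commuting modulo `τ` with an element of order three commutes with it. -/
theorem comm_of_map (hq : Ext q τ) {b x : B} (hx : orderOf x = 3) (hbx : q b * q x = q x * q b) : b * x = x * b := by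
  rcases hq.conj_of_commute (g := b) (a := x) hbx with h1 | h1
  · exact mul_inv_eq_iff_eq_mul.1 h1
  · exfalso
    have hx3 : x ^ 3 = 1 := by rw [← hx, pow_orderOf_eq_one]
    have h2 : (b * x * b⁻¹) ^ 3 = 1 := by rw [conj_pow, hx3, mul_one, mul_inv_cancel]
    rw [h1] at h2
    have h3 : Commute x τ := hq.comm x
    rw [h3.mul_pow, hx3, one_mul] at h2
    apply hq.zne
    calc τ = τ * (τ * τ) := by rw [hq.zz, mul_one]
      _ = τ ^ 3 := by rw [pow_succ, pow_two, mul_assoc]
      _ = 1 := h2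

/-- `y 3` is conjugate to `y 5` -/
theorem isConj_three (h : Pre y) : IsConj (y 5) (y 3) := by
  have hb := h.br 3 (by norm_num) 4 (by norm_num) (by norm_num) (by norm_num) (by decide)
  have h3 := h.sq 3 (by norm_num) (by norm_num)
  have h4 := h.sq 4 (by norm_num) (by norm_num)
  exact ((BM.KH.isConj_of_braid h3 h4 hb).trans (CardK.isConj_four h)).symm

/-- The case of an element commuting with `y 5`. -/
theorem at_five {F : Type*} [Field F] [Fintype F] {hF : Fintype.card F = 2 ^ 2}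
    (hR : Cfsg.Agent.BabyU.RootCfg.RootFacts hF R)
    (hroot : ∀ e : E, orderOf e = 3 → ∃ r ∈ R, e * r = r * e)
    (hq : Ext q τ) (h10 : y 10 = τ) (D : KD h R π) (Fc : FusionType.Facts τ f₁ f₂ f₃ f₄)
    {Γ : Type*} [Group Γ] {θ : B →* Γ} {z : Γ}
    (hcz : IsConj z (θ (τ * (f₁ * f₂)))) (hcd : IsConj z (θ (f₁ * f₂ * f₃)))
    (hc5 : IsConj f₁ (y 5)) (big : KEq.Big B τ (y 5)) {M₁ : Subgroup X} (Bs : Base2 (q (y 5)) M₁)
    {x : B} (hx : orderOf x = 3) (hx5 : x * y 5 = y 5 * x) : ∃ v : B, v * x = x * v ∧ IsConj z (θ v) := by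
  have hx3 : x ^ 3 = 1 := by rw [← hx, pow_orderOf_eq_one]
  have hττ : τ * τ = 1 := hq.zz
  have h55 : y 5 * y 5 = 1 := h.sq 5 (by norm_num) (by norm_num)
  have hxK : x ∈ KK y := mem_KK.2 ⟨by rw [h10]; exact hq.comm x, hx5⟩
  -- elements of the kernel of `π`
  have hker : ∀ k : KK y, π k = 1 → k * k = 1 ∧ (∀ a : KK y, a * k = k * a) ∧
      ((k : B) = 1 ∨ (k : B) = τ ∨ (k : B) = y 5 ∨ (k : B) = y 5 * τ) := by
    intro k hk
    have h21 : h.f2 * h.f1 = h.f1 * h.f2 := (h.f1_comm h.f2).symm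
    rcases (D.ker k).1 hk with rfl | rfl | rfl | rfl
    · exact ⟨one_mul 1, fun a => by rw [mul_one, one_mul], Or.inl rfl⟩
    · exact ⟨h.f2_sq, fun a => (h.f2_comm a).symm, Or.inr (Or.inl h10)⟩
    · exact ⟨h.f1_sq, fun a => (h.f1_comm a).symm, Or.inr (Or.inr (Or.inl rfl))⟩
    · refine ⟨?_, ?_, Or.inr (Or.inr (Or.inr ?_))⟩
      · calc h.f2 * h.f1 * (h.f2 * h.f1) = h.f2 * h.f1 * (h.f1 * h.f2) := by rw [h21]
          _ = h.f2 * (h.f1 * h.f1) * h.f2 := by group
          _ = 1 := by rw [h.f1_sq, mul_one, h.f2_sq]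
      · intro a
        calc a * (h.f2 * h.f1) = a * h.f2 * h.f1 := by group
          _ = h.f2 * (a * h.f1) := by rw [← h.f2_comm]; group
          _ = h.f2 * h.f1 * a := by rw [← h.f1_comm]; group
      · show y 10 * y 5 = y 5 * τ
        rw [h10, hq.comm]
  set x' : KK y := ⟨x, hxK⟩ with hx'
  have hx'3 : x' ^ 3 = 1 := Subtype.ext hx3
  have he : orderOf (π x') = 3 := by
    have : Fact (Nat.Prime 3) := ⟨Nat.prime_three⟩
    refine orderOf_eq_prime (by rw [← map_pow, hx'3, map_one]) ?_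
    intro h1
    have h2 : x * x = 1 := congrArg Subtype.val (hker x' h1).1
    have h3 : x = 1 := by
      calc x = x ^ 3 * (x * x)⁻¹ := by group
        _ = 1 := by rw [hx3, h2, one_mul, inv_one]
    rw [h3, orderOf_one] at hx
    norm_num at hx
  obtain ⟨r, hr, her⟩ := hroot _ he
  obtain ⟨g, hg⟩ := hR.one _ (D.node 0) _ hr
  obtain ⟨k₀, rfl⟩ := D.surj g
  set k : KK y := k₀ * h.nd 0 * k₀⁻¹ with hk
  have hπk : π k = r := by rw [hk, map_mul, map_mul, map_inv, hg]
  have hkk : k * k = 1 := by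
    have h1 : h.nd 0 * h.nd 0 = 1 := Subtype.ext (h.sq _ (nl_lt 0) (nl_ne 0))
    calc k * k = k₀ * (h.nd 0 * h.nd 0) * k₀⁻¹ := by rw [hk]; group
      _ = 1 := by rw [h1]; group
  -- `x` commutes with `k`
  have hxk : x' * k = k * x' := by
    have h1 : π (x' * k * x'⁻¹ * k⁻¹) = 1 := by
      rw [map_mul, map_mul, map_mul, map_inv, map_inv, hπk, her]
      group
    obtain ⟨h2, h3, -⟩ := hker _ h1
    set c := x' * k * x'⁻¹ * k⁻¹ with hc
    have h4 : x' * k * x'⁻¹ = c * k := by rw [hc]; group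
    have h5 : x' ^ 2 * k * (x' ^ 2)⁻¹ = k := by
      calc x' ^ 2 * k * (x' ^ 2)⁻¹ = x' * (x' * k * x'⁻¹) * x'⁻¹ := by rw [pow_two]; group
        _ = x' * c * k * x'⁻¹ := by rw [h4]; group
        _ = c * (x' * k * x'⁻¹) := by rw [h3]; group
        _ = c * c * k := by rw [h4]; group
        _ = k := by rw [h2, one_mul]
    have h6 : Commute (x' ^ 2) k := mul_inv_eq_iff_eq_mul.1 h5
    have h7 : x' = (x' ^ 2) ^ 2 := by rw [← pow_mul, show 2 * 2 = 3 + 1 by norm_num, pow_succ, hx'3, one_mul]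
    rw [h7]
    exact h6.pow_left 2
  have hxkB : x * (k : B) = k * x := congrArg Subtype.val hxk
  have hk5 : (k : B) * y 5 = y 5 * k := (mem_KK.1 k.2).2
  have hkne : ¬ ((k : B) = 1 ∨ (k : B) = y 5 ∨ (k : B) = y 5 * τ) := by
    intro h1
    have h2 : π k = 1 := by
      rw [D.ker]
      rcases h1 with h1 | h1 | h1
      · exact Or.inl (Subtype.ext h1)
      · exact Or.inr (Or.inr (Or.inl (Subtype.ext h1)))
      · refine Or.inr (Or.inr (Or.inr (Subtype.ext ?_)))
        show (k : B) = y 10 * y 5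
        rw [h1, h10, hq.comm]
    rw [hπk] at h2
    exact hR.ne r hr h2
  -- the involution `w = y₅ k`
  set w : B := y 5 * k with hw
  have hww : w * w = 1 := by
    have h1 : (k : B) * k = 1 := congrArg Subtype.val hkk
    calc w * w = y 5 * (k * y 5) * k := by rw [hw]; group
      _ = y 5 * (y 5 * k) * k := by rw [hk5]
      _ = (y 5 * y 5) * (k * k) := by group
      _ = 1 := by rw [h55, h1, one_mul]
  have hkw : (k : B) = y 5 * w := by rw [hw, ← mul_assoc, h55, one_mul]
  have hw1 : w ≠ 1 := fun e => hkne (Or.inr (Or.inl (by rw [hkw, e, mul_one])))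
  have hwτ : w ≠ τ := fun e => hkne (Or.inr (Or.inr (by rw [hkw, e])))
  have hwx : w * x = x * w := by
    calc w * x = y 5 * (k * x) := by rw [hw]; group
      _ = (y 5 * x) * k := by rw [← hxkB]; group
      _ = x * w := by rw [← hx5, hw]; group
  rcases Fc.classes w hww hw1 hwτ with h1 | h1 | h1 | h1
  · exfalso
    have hkT : IsConj (q (y 5)) (q k) := by
      refine q.map_isConj ((isConj_three h).trans (isConj_iff.2 ⟨k₀, ?_⟩))
      show (k₀ : B) * y 3 * (k₀ : B)⁻¹ = k
      rfl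
    refine Bs.prod_ne (q k) hkT ?_ ?_ ?_
    · rw [BaseTwo.Base.eq_map hq h10 big Bs.toBase]
      exact ⟨k, k.2, rfl⟩
    · intro h2
      rcases hq.map_eq.1 h2 with h3 | h3
      · exact hkne (Or.inr (Or.inl h3))
      · exact hkne (Or.inr (Or.inr h3))
    · rw [← map_mul]
      exact q.map_isConj (hc5.symm.trans h1)
  · refine ⟨τ * w, ?_, hcz.trans (θ.map_isConj (FusionType.conj_mul_t Fc.cen h1))⟩
    calc τ * w * x = τ * (w * x) := by group
      _ = (τ * x) * w := by rw [hwx]; group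
      _ = x * (τ * w) := by rw [← hq.comm]; group
  · exact ⟨w, hwx, hcz.trans (θ.map_isConj h1)⟩
  · exact ⟨w, hwx, hcd.trans (θ.map_isConj h1)⟩

/-- The case of an involution of `B`. -/
theorem at_inv {F : Type*} [Field F] [Fintype F] {hF : Fintype.card F = 2 ^ 2}
    (hR : Cfsg.Agent.BabyU.RootCfg.RootFacts hF R)
    (hroot : ∀ e : E, orderOf e = 3 → ∃ r ∈ R, e * r = r * e)
    (hq : Ext q τ) (h10 : y 10 = τ) (D : KD h R π) (Fc : FusionType.Facts τ f₁ f₂ f₃ f₄)
    {Γ : Type*} [Group Γ] {θ : B →* Γ} {z : Γ}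
    (hcz : IsConj z (θ (τ * (f₁ * f₂)))) (hcd : IsConj z (θ (f₁ * f₂ * f₃)))
    (hc5 : IsConj f₁ (y 5)) (big : KEq.Big B τ (y 5)) {M₁ : Subgroup X} (Bs : Base2 (q (y 5)) M₁)
    {x b : B} (hx : orderOf x = 3) (hbb : b * b = 1) (hb1 : b ≠ 1) (hbτ : b ≠ τ) (hbx : b * x = x * b) :
    ∃ v : B, v * x = x * v ∧ IsConj z (θ v) := by
  rcases Fc.classes b hbb hb1 hbτ with h1 | h1 | h1 | h1
  · obtain ⟨c, hc⟩ := isConj_iff.1 (hc5.symm.trans h1)
    have h2 : y 5 = c⁻¹ * b * c := by rw [← hc]; group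
    obtain ⟨v, hv, hvz⟩ := at_five hR hroot hq h10 D Fc hcz hcd hc5 big Bs (x := c⁻¹ * x * c)
      (by
        have h3 : c⁻¹ * x * c = MulAut.conj c⁻¹ x := by rw [MulAut.conj_apply, inv_inv]
        rw [h3, MulEquiv.orderOf_eq, hx])
      (by
        rw [h2]
        calc c⁻¹ * x * c * (c⁻¹ * b * c) = c⁻¹ * (x * b) * c := by group
          _ = c⁻¹ * (b * x) * c := by rw [hbx]
          _ = _ := by group)
    refine ⟨c * v * c⁻¹, ?_, hvz.trans (θ.map_isConj (isConj_iff.2 ⟨c, rfl⟩))⟩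
    calc c * v * c⁻¹ * x = c * (v * (c⁻¹ * x * c)) * c⁻¹ := by group
      _ = c * (c⁻¹ * x * c * v) * c⁻¹ := by rw [hv]
      _ = x * (c * v * c⁻¹) := by group
  · refine ⟨τ * b, ?_, hcz.trans (θ.map_isConj (FusionType.conj_mul_t Fc.cen h1))⟩
    calc τ * b * x = τ * (b * x) := by group
      _ = (τ * x) * b := by rw [hbx]; group
      _ = x * (τ * b) := by rw [← hq.comm]; group
  · exact ⟨b, hbx, hcz.trans (θ.map_isConj h1)⟩
  · exact ⟨b, hbx, hcd.trans (θ.map_isConj h1)⟩

/-- **The main statement.** -/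
theorem exists_two {F : Type*} [Field F] [Fintype F] {hF : Fintype.card F = 2 ^ 2}
    (hR : Cfsg.Agent.BabyU.RootCfg.RootFacts hF R) (hX : Cfsg.Agent.BabyU.Key.Extra hF R)
    (Rt : Cfsg.Agent.BabyU.Lab.Roots E R)
    (hroot : ∀ e : E, orderOf e = 3 → ∃ r ∈ R, e * r = r * e)
    (hq : Ext q τ) (h10 : y 10 = τ) (D : KD h R π) (Fc : FusionType.Facts τ f₁ f₂ f₃ f₄)
    {Γ : Type*} [Group Γ] {θ : B →* Γ} {z : Γ}
    (hcz : IsConj z (θ (τ * (f₁ * f₂)))) (hcd : IsConj z (θ (f₁ * f₂ * f₃)))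
    (hc5 : IsConj f₁ (y 5)) (big : KEq.Big B τ (y 5)) {M₁ : Subgroup X} (Bs : Base2 (q (y 5)) M₁)
    {x : B} (hx : orderOf x = 3) {u : X} (hu : orderOf u = 2) (hux : u * q x = q x * u) :
    ∃ v : B, v * x = x * v ∧ IsConj z (θ v) := by
  have huu : u * u = 1 := by rw [← pow_two, ← hu, pow_orderOf_eq_one]
  have hu1 : u ≠ 1 := by
    rintro rfl
    rw [orderOf_one] at hu
    omega
  obtain ⟨b, rfl⟩ := hq.surj u
  have hbx := comm_of_map hq hx hux
  have hbb : b * b = 1 ∨ b * b = τ := (hq.ker _).1 (by rw [map_mul, huu])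
  rcases hbb with hbb | hbb
  · exact at_inv hR hroot hq h10 D Fc hcz hcd hc5 big Bs hx hbb (fun e => hu1 (by rw [e, map_one]))
      (fun e => hu1 (by rw [e, hq.mapz])) hbx
  · have hM := BaseTwo.Base.eq_map hq h10 big Bs.toBase
    -- `u` has no conjugate in `M₁`
    have hno : ∀ g : X, g⁻¹ * q b * g ∉ M₁ := by
      intro g hg
      obtain ⟨c, rfl⟩ := hq.surj g
      obtain ⟨k, hk, hqk⟩ := M_le hq h10 big Bs.toBase _ hg
      have hkk : k * k = 1 := by
        refine lift_sq hR hX Rt hq h10 D hk ?_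
        rw [hqk]
        calc (q c)⁻¹ * q b * q c * ((q c)⁻¹ * q b * q c) = (q c)⁻¹ * (q b * q b) * q c := by group
          _ = 1 := by rw [huu]; group
      have h1 : q k = q (c⁻¹ * b * c) := by rw [hqk, map_mul, map_mul, map_inv]
      have h2 : k * k = τ := by
        have h3 : c⁻¹ * b * c * (c⁻¹ * b * c) = τ := by
          calc c⁻¹ * b * c * (c⁻¹ * b * c) = c⁻¹ * (b * b) * c := by group
            _ = c⁻¹ * (τ * c) := by rw [hbb, mul_assoc]
            _ = c⁻¹ * (c * τ) := by rw [hq.comm]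
            _ = τ := by group
        rcases hq.map_eq.1 h1 with h4 | h4
        · rw [h4, h3]
        · rw [h4]
          calc c⁻¹ * b * c * τ * (c⁻¹ * b * c * τ) = c⁻¹ * b * c * (τ * (c⁻¹ * b * c)) * τ := by group
            _ = c⁻¹ * b * c * (c⁻¹ * b * c * τ) * τ := by rw [hq.comm (c⁻¹ * b * c)]
            _ = (c⁻¹ * b * c * (c⁻¹ * b * c)) * (τ * τ) := by group
            _ = τ := by rw [h3, hq.zz, mul_one]
      rw [hkk] at h2
      exact hq.zne h2.symm
    rcases Bs.classes (q b) huu hu1 with ⟨g, hg⟩ | ⟨d, hd, hc, hud⟩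
    · exact absurd hg (hno g)
    · obtain ⟨g, hg⟩ := isConj_iff.1 hd
      obtain ⟨c, rfl⟩ := hq.surj g
      set t := q (y 5) with ht
      have htt : t * t = 1 := by rw [ht, ← map_mul, h.sq 5 (by norm_num) (by norm_num), map_one]
      have htM : t ∈ M₁ := by rw [hM]; exact ⟨y 5, h.five_mem, rfl⟩
      set u' : X := (q c)⁻¹ * q b * q c with hu'
      have hdt : (q c)⁻¹ * d * q c = t := by rw [← hg]; group
      have hu't : u' * t = t * u' := by
        calc u' * t = (q c)⁻¹ * (q b * d) * q c := by rw [← hdt, hu']; group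
          _ = (q c)⁻¹ * (d * q b) * q c := by rw [hc]
          _ = t * u' := by rw [← hdt, hu']; group
      -- the transposition `d' = t u'`
      have hd'T : IsConj t (t * u') := by
        refine hud.trans (isConj_iff.2 ⟨(q c)⁻¹, ?_⟩)
        rw [← hu't, inv_inv, ← hdt, hu']
        group
      have htd' : t * (t * u') = u' := by rw [← mul_assoc, htt, one_mul]
      have hd'M : t * u' ∉ M₁ := by
        intro h1
        have h2 := M₁.mul_mem htM h1
        rw [htd'] at h2
        exact hno (q c) h2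
      have hx' : orderOf ((q c)⁻¹ * q x * q c) = 3 := by
        have h3 : (q c)⁻¹ * q x * q c = MulAut.conj (q c)⁻¹ (q x) := by rw [MulAut.conj_apply, inv_inv]
        rw [h3, MulEquiv.orderOf_eq]
        have : Fact (Nat.Prime 3) := ⟨Nat.prime_three⟩
        refine orderOf_eq_prime (by rw [← map_pow, ← hx, pow_orderOf_eq_one, map_one]) ?_
        intro h4
        rcases (hq.ker _).1 h4 with h5 | h5
        · rw [h5, orderOf_one] at hx
          norm_num at hx
        · have h6 : orderOf x ∣ 2 := orderOf_dvd_of_pow_eq_one (by rw [h5, pow_two, hq.zz])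
          rw [hx] at h6
          norm_num at h6
      have h1 := Bs.comm_of_odd (t * u') ((q c)⁻¹ * q x * q c) hd'T (by rw [mul_assoc, hu't]) hd'M
        (by rw [hx']; decide) (by
          rw [htd', hu']
          calc (q c)⁻¹ * q x * q c * ((q c)⁻¹ * q b * q c) = (q c)⁻¹ * (q x * q b) * q c := by group
            _ = (q c)⁻¹ * (q b * q x) * q c := by rw [hux]
            _ = _ := by group)
      -- `x` commutes with `c y₅ c⁻¹`
      have h2 : q (c * y 5 * c⁻¹) * q x = q x * q (c * y 5 * c⁻¹) := by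
        rw [map_mul, map_mul, map_inv, ← ht]
        calc q c * t * (q c)⁻¹ * q x = q c * (t * ((q c)⁻¹ * q x * q c)) * (q c)⁻¹ := by group
          _ = q c * ((q c)⁻¹ * q x * q c * t) * (q c)⁻¹ := by rw [h1]
          _ = q x * (q c * t * (q c)⁻¹) := by group
      refine at_inv hR hroot hq h10 D Fc hcz hcd hc5 big Bs hx (b := c * y 5 * c⁻¹) ?_ ?_ ?_ (comm_of_map hq hx h2)
      · calc c * y 5 * c⁻¹ * (c * y 5 * c⁻¹) = c * (y 5 * y 5) * c⁻¹ := by group
          _ = 1 := by rw [h.sq 5 (by norm_num) (by norm_num)]; group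
      · intro h3
        apply D.ne1
        calc y 5 = c⁻¹ * (c * y 5 * c⁻¹) * c := by group
          _ = 1 := by rw [h3]; group
      · intro h3
        apply D.ne
        rw [h10]
        calc τ = c⁻¹ * (c * τ) := by group
          _ = c⁻¹ * (τ * c) := by rw [hq.comm]
          _ = c⁻¹ * (c * y 5 * c⁻¹ * c) := by rw [h3]
          _ = y 5 := by group

end

end Cfsg.Agent.BabyComp.EvenThree
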